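import Cfsg.Agent.Class.AL.SpTens
import Cfsg.Agent.Class.FieldIso
import Cfsg.Agent.Class.TvProper
import Cfsg.Agent.Class.Asch.TensorForm

/-!
Two geometric subgroups of the symplectic group in dimension four over the field with three
elements which are not maximal: the stabiliser of a pair of totally isotropic planes and the
normaliser of a quadratic extension field of unitary type.
-/

set_option autoImplicit false
set_option linter.unusedSectionVars false

namespace Cfsg.Lib.Class.AL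

open Matrix Cfsg.Geo Cfsg.Lib.Class.Asch
open scoped MatrixGroups

variable {ι : Type} [Fintype ι] [DecidableEq ι] {F : Type*} [Field F]
  {f : (ι → F) → (ι → F) → F}

section Pair

theorem exists_eq_smul_of_plane (hf : PreSesq (RingEquiv.refl F) f) {W : Submodule F (ι → F)}
    (hW : Module.finrank F W = 2) {x x₁ x₀ y : ι → F} (hx : x ∈ W) (hx₁ : x₁ ∈ W) (hx₀ : x₀ ∈ W)
    (h1 : x₁ ≠ 0) (h2 : f x y = 0) (h3 : f x₁ y = 0) (h4 : f x₀ y ≠ 0) : ∃ l : F, l • x₁ = x := by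
  by_contra h
  have hli : LinearIndependent F ![x₁, x] := (LinearIndependent.pair_iff' h1).2 (not_exists.1 h)
  have h5 : Submodule.span F {x₁, x} = W := Submodule.eq_of_le_of_finrank_eq
    (Submodule.span_le.2 (by rintro _ (rfl | rfl) <;> assumption))
    (by rw [Orth.finrank_span_pair hli, hW])
  obtain ⟨a, b, rfl⟩ := Submodule.mem_span_pair.1 (h5 ▸ hx₀)
  exact h4 (by rw [hf.add_left, hf.smul_left, hf.smul_left, h2, h3]; ring)

theorem exists_pairing {k : ℕ} {D : Fin 2 → Submodule F (ι → F)} (hf : IsSymplecticForm f)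
    (hD : IsMDecomposition k D) (hs : ∀ i, IsTotallySingularFor f (D i)) {y : ι → F} (hy : y ∈ D 1)
    (hy0 : y ≠ 0) : ∃ x ∈ D 0, f x y ≠ 0 := by
  by_contra! h
  refine hy0 ((isSesq_of_isSymplecticForm hf).nondeg y fun v => ?_)
  have hv : v ∈ iSup D := hD.iSup_eq_top ▸ Submodule.mem_top
  induction hv using Submodule.iSup_induction' with
  | mem i v hv =>
    fin_cases i
    · exact h v hv
    · exact hs 1 v hv y hy
  | zero => exact (symp_pre hf).zero_left _
  | add u v _ _ hu hv => rw [(symp_pre hf).add_left, hu, hv, add_zero]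

/-- A pair of totally isotropic planes over the field with three elements. -/
theorem notMax_pair_three [Fintype F] (hq : Fintype.card F = 3) {D : Fin 2 → Submodule F (ι → F)}
    (hf : IsSymplecticForm f) (hD : IsMDecomposition 2 D)
    (hs : ∀ i, IsTotallySingularFor f (D i)) : NotMax (isoms f) (decompositionStabilizer D) := by
  have s := symp_pre hf
  have hdis : ∀ v, v ∈ D 0 → v ∈ D 1 → v = 0 := fun v h0 h1 => by
    by_contra h
    exact absurd (TvP.decomp_eq_of_mem hD h h0 h1) (by decide)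
  have key : ∀ x ∈ D 0, ∀ x₁ ∈ D 0, ∀ y, ∀ y₁ ∈ D 1, x ≠ 0 → x₁ ≠ 0 → y₁ ≠ 0 → f x y = 0 →
      f x₁ y₁ = 0 → f x y₁ = 0 → f x₁ y = 0 := fun x hx x₁ hx₁ y y₁ hy₁ h1 h2 h3 h4 h5 h6 => by
    obtain ⟨x₀, hx₀, h7⟩ := exists_pairing hf hD hs hy₁ h3
    obtain ⟨l, rfl⟩ := exists_eq_smul_of_plane s (hD.finrank_eq 0) hx₁ hx hx₀ h1 h5 h6 h7
    rw [s.smul_left, h4, mul_zero]
  obtain ⟨y₁, hy₁, hy0⟩ := IsMDecomposition.exists_ne_zero hD 1
  obtain ⟨x₀, hx₀, h0⟩ := exists_pairing hf hD hs hy₁ hy0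
  obtain ⟨x₁, hx₁, hx0, h1⟩ : ∃ x₁ ∈ D 0, x₁ ≠ 0 ∧ f x₁ y₁ = 0 := by
    let φ : D 0 →ₗ[F] F := ((geoBilin hf.bilinear).flip y₁).domRestrict (D 0)
    obtain ⟨x, hx, hx'⟩ := Submodule.exists_mem_ne_zero_of_ne_bot
      (LinearMap.ker_ne_bot_of_finrank_lt (f := φ) (by simp [hD.finrank_eq]))
    exact ⟨x, x.2, by simpa using hx', hx⟩
  refine notMax_of
    (N := setStab {v | ∃ x ∈ D 0, ∃ y ∈ D 1, x ≠ 0 ∧ y ≠ 0 ∧ f x y = 0 ∧ v = x + y}) ?_
    ((vTrans_isoms hf).not_le_of_set (fun g hg => hg) (u := x₁ + y₁)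
      ⟨_, hx₁, _, hy₁, hx0, hy0, h1, rfl⟩
      (fun h => hy0 (hdis _ (by rw [eq_neg_of_add_eq_zero_right h]; exact neg_mem hx₁) hy₁))
      (w := x₁) (fun ⟨x, hx, y, hy, _, h2, _, h3⟩ => h2 (hdis _
        (by rw [← sub_eq_iff_eq_add'.2 h3]; exact sub_mem hx₁ hx) hy)) hx0)
    (spTv_mem hf (x₁ + y₁) 1) ?_ ?_
  · rintro g ⟨hg, hg'⟩ _ ⟨x, hx, y, hy, h2, h3, h4, rfl⟩
    obtain ⟨σ, hσ⟩ := mulVec_mem_of_mem_decompositionStabilizer hg
    have h5 := hσ 0 x hx
    have h6 := hσ 1 y hy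
    have h7 := (mem_isoms.1 hg' x y).trans h4
    have h8 := mt (coe_mulVec_eq_zero g) h2
    have h9 := mt (coe_mulVec_eq_zero g) h3
    rcases (by decide : ∀ σ : Equiv.Perm (Fin 2), (σ 0 = 0 ∧ σ 1 = 1) ∨ (σ 0 = 1 ∧ σ 1 = 0)) σ with
      ⟨a, b⟩ | ⟨a, b⟩ <;> rw [a] at h5 <;> rw [b] at h6
    · exact ⟨_, h5, _, h6, h8, h9, h7, mulVec_add _ _ _⟩
    · exact ⟨_, h6, _, h5, h9, h8, by rw [hf.skew, h7, neg_zero], by rw [mulVec_add, add_comm]⟩
  · rintro _ ⟨x, hx, y, hy, h2, h3, h4, rfl⟩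
    have h5 : f (x + y) (x₁ + y₁) = f x y₁ - f x₁ y := by
      rw [s.add_left, s.add_right, s.add_right, hs 0 x hx x₁ hx₁, hs 1 y hy y₁ hy₁, hf.skew y x₁]
      ring
    rw [spTv_mulVec hf, h5]
    by_cases h6 : f x y₁ = 0
    · exact ⟨x, hx, y, hy, h2, h3, h4, by
        rw [h6, key x hx x₁ hx₁ y y₁ hy₁ h2 hx0 hy0 h4 h1 h6]; simp⟩
    · have h7 : f x₁ y ≠ 0 := fun h7 => h6 (key x₁ hx₁ x hx y₁ y hy hx0 h2 h3 h1 h4 h7)
      refine ⟨x + (f x y₁ - f x₁ y) • x₁, add_mem hx (Submodule.smul_mem _ _ hx₁),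
        y + (f x y₁ - f x₁ y) • y₁, add_mem hy (Submodule.smul_mem _ _ hy₁), fun h => h6 ?_,
        fun h => h7 ?_, ?_, by module⟩
      · simpa [s.add_left, s.smul_left, h1, s.zero_left] using congrArg (f · y₁) h
      · simpa [s.add_right, s.smul_right, h1, s.zero_right] using congrArg (f x₁ ·) h
      · simp only [s.add_left, s.smul_left, s.add_right, s.smul_right, h1, h4, RingEquiv.refl_apply]
        linear_combination mul_self_of_card_three hq h6 - mul_self_of_card_three hq h7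
  · intro hm
    obtain ⟨σ, hσ⟩ := mulVec_mem_of_mem_decompositionStabilizer hm
    have h2 := hσ 0 x₀ hx₀
    rw [spTv_mulVec hf, s.add_right, hs 0 x₀ hx₀ x₁ hx₁, zero_add, one_mul, smul_add,
      ← add_assoc] at h2
    have h3 : x₀ + f x₀ y₁ • x₁ ∈ D 0 := add_mem hx₀ (Submodule.smul_mem _ _ hx₁)
    have h4 : f x₀ y₁ • y₁ ∈ D 1 := Submodule.smul_mem _ _ hy₁
    rcases (by decide : ∀ i : Fin 2, i = 0 ∨ i = 1) (σ 0) with a | a <;> rw [a] at h2
    · exact smul_ne_zero h0 hy0 (hdis _ ((add_mem_cancel_left h3).1 h2) h4)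
    · have h5 := hdis _ h3 ((add_mem_cancel_right h4).1 h2)
      exact h0 (by simpa [s.add_left, s.smul_left, h1, s.zero_left] using congrArg (f · y₁) h5)

end Pair

/-- Non-maximality detected by the set of involutions. -/
theorem notMax_of_invol {X : Type*} [Group X] {G M : Subgroup X} {h g z : X} (hh : h ∈ G)
    (hM : h ∉ M) (key : ∀ n ∈ G, n * n = 1 → (n ∈ M ↔ h * n * h⁻¹ ∈ M)) (hg : g ∈ G) (hz : z ∈ G)
    (hz2 : z * z = 1) (hzM : z ∈ M) (hgz : g * z * g⁻¹ ∉ M) : NotMax G M := by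
  have H : ∀ x ∈ G, (∀ n ∈ G, n * n = 1 → (n ∈ M ↔ x * n * x⁻¹ ∈ M)) →
      x ∈ Subgroup.normalizer {n | n ∈ G ∧ n * n = 1 ∧ n ∈ M} := fun x hx h n => by
    have h1 : x * n * x⁻¹ ∈ G ↔ n ∈ G := by
      rw [G.mul_mem_cancel_right (inv_mem hx), G.mul_mem_cancel_left hx]
    have h2 : x * n * x⁻¹ * (x * n * x⁻¹) = 1 ↔ n * n = 1 := by
      rw [conj_mul, conj_eq_one_iff]
    simp only [Set.mem_ofPred_eq, h1, h2]
    exact and_congr_right fun a => and_congr_right fun b => h n a b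
  refine notMax_of (fun x hx => H x hx.2 fun n _ _ => ?_)
    (fun hle => hgz (((hle hg) z).1 ⟨hz, hz2, hzM⟩).2.2) hh (H h hh key) hM
  rw [M.mul_mem_cancel_right (inv_mem hx.1), M.mul_mem_cancel_left hx.1]

section Unitary

/-- The standard complex structure. -/
def iFour (R : Type*) [CommRing R] : Matrix (Fin 4) (Fin 4) R :=
  !![0, -1, 0, 0; 1, 0, 0, 0; 0, 0, 0, -1; 0, 0, 1, 0]

/-- The general self-adjoint matrix. -/
def saFour {R : Type*} [CommRing R] (a d p q r s : R) : Matrix (Fin 4) (Fin 4) R :=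
  !![a, 0, p, q; 0, a, r, s; s, -q, d, 0; -r, p, 0, d]

/-- Commuting or anticommuting with the standard complex structure. -/
abbrev CommI (Y : Matrix (Fin 4) (Fin 4) (ZMod 3)) : Prop :=
  Y * iFour _ = iFour _ * Y ∨ Y * iFour _ = -(iFour _ * Y)

/-- An element of order three normalising the extraspecial group. -/
def hFour : GL (Fin 4) (ZMod 3) :=
  ⟨!![0, 1, 0, 0; 2, 2, 0, 0; 0, 0, 1, 0; 0, 0, 2, 1],
    !![2, 2, 0, 0; 1, 0, 0, 0; 0, 0, 1, 0; 0, 0, 1, 1], by decide, by decide⟩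

/-- A transvection. -/
def gFour : GL (Fin 4) (ZMod 3) :=
  ⟨!![1, 1, 0, 0; 0, 1, 0, 0; 0, 0, 1, 0; 0, 0, 0, 1],
    !![1, 2, 0, 0; 0, 1, 0, 0; 0, 0, 1, 0; 0, 0, 0, 1], by decide, by decide⟩

/-- An involution. -/
def zFour : GL (Fin 4) (ZMod 3) :=
  ⟨!![0, 0, 0, 1; 0, 0, 2, 0; 0, 2, 0, 0; 1, 0, 0, 0],
    !![0, 0, 0, 1; 0, 0, 2, 0; 0, 2, 0, 0; 1, 0, 0, 0], by decide, by decide⟩

theorem saFour_check : ∀ a d p q r s : ZMod 3, saFour a d p q r s * saFour a d p q r s = 1 →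
    (CommI (saFour a d p q r s) ↔ CommI (hFour.val * saFour a d p q r s * hFour.inv)) := by
  decide +kernel

theorem exists_saFour {Z : Matrix (Fin 4) (Fin 4) (ZMod 3)} (h : -(iFour _ * Zᵀ * iFour _) = Z) :
    ∃ a d p q r s, Z = saFour a d p q r s := by
  have h0 : ∀ x : ZMod 3, -x = x → x = 0 := by decide
  have e := fun i j => congrFun (congrFun h i) j
  have e1 := e 0 1
  have e2 := e 1 0
  have e3 := e 2 3
  have e4 := e 3 2
  have e5 := e 1 1
  have e6 := e 3 3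
  have e7 := e 2 0
  have e8 := e 2 1
  have e9 := e 3 0
  have e10 := e 3 1
  simp only [Matrix.neg_apply, Matrix.mul_apply, Fin.sum_univ_four, transpose_apply]
    at e1 e2 e3 e4 e5 e6 e7 e8 e9 e10
  simp [iFour] at e1 e2 e3 e4 e5 e6 e7 e8 e9 e10
  refine ⟨Z 0 0, Z 2 2, Z 0 2, Z 0 3, Z 1 2, Z 1 3, ?_⟩
  ext i j
  fin_cases i <;> fin_cases j <;>
    simp [saFour, h0 _ e1, h0 _ e2, h0 _ e3, h0 _ e4, e5, ← e6, ← e7, ← e8, ← e9, ← e10]

theorem exists_skew [Nonempty ι] [Fintype F] (hq : Fintype.card F = 3) (hf : IsSymplecticForm f)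
    {K : Subalgebra F (Matrix ι ι F)} (hK : IsFieldSubalgebra 2 K) (hc : IsAdjointClosedFor f K)
    (hn : ¬ IsSelfAdjointFor f K) : ∃ j : Matrix ι ι F, j * j = -1 ∧
      adj (RingEquiv.refl F) f j = -j ∧
      ∀ g : GL ι F, g ∈ subalgebraNormalizer K ↔ (g * j = j * g ∨ g * j = -(j * g)) := by
  have s := isSesq_of_isSymplecticForm hf
  have h2 : (2 : F) ≠ 0 := two_ne_zero_of_odd (by rw [hq]; decide)
  rw [s.isSelfAdjointFor_iff] at hn
  have hsc := fun x hx => Asch.IsFieldSubalgebra.exists_eq_smul_of_adj hK s hn (x := x) hx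
  push Not at hn
  obtain ⟨k, hk, hk'⟩ := hn
  have hdom : ∀ x ∈ K, ∀ y, x * y = 0 → x = 0 ∨ y = 0 := fun x hx y h => by
    refine or_iff_not_imp_left.2 fun h0 => ?_
    obtain ⟨z, hz, h1⟩ := hK.inv x hx h0
    rw [← one_mul y, ← h1, hK.comm x hx z hz, mul_assoc, h, mul_zero]
  set j := k - adj (RingEquiv.refl F) f k with hj
  have hjK : j ∈ K := sub_mem hk (s.adj_mem_of_isAdjointClosedFor hc hk)
  have hj0 : j ≠ 0 := sub_ne_zero.2 hk'.symm
  have hj1 : adj (RingEquiv.refl F) f j = -j := by rw [hj, s.adj_sub, s.adj_adj, neg_sub]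
  have hj2 : ∀ c : F, j ≠ c • 1 := fun c h => hj0 (by
    rw [h, s.adj_smul_one, RingEquiv.refl_apply, ← h, eq_neg_iff_add_eq_zero, ← two_smul F,
      smul_eq_zero] at hj1
    exact hj1.resolve_left h2)
  have hj3 : j * j = -1 := by
    obtain ⟨c, hc⟩ := hsc _ (mul_mem hjK hjK) (by rw [s.adj_mul, hj1, neg_mul_neg])
    rcases OMax.eq_or_of_card_three hq c with rfl | rfl | rfl
    · rcases hdom j hjK j (by simpa using hc) with h | h <;> exact absurd h hj0
    · rcases hdom (j - 1) (sub_mem hjK (one_mem _)) (j + 1) (by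
        rw [sub_mul, mul_add, hc]; simp [add_comm]) with h | h
      · exact absurd (by simpa using sub_eq_zero.1 h) (hj2 1)
      · exact absurd (by simpa using eq_neg_of_add_eq_zero_left h) (hj2 (-1))
    · simpa using hc
  have hspan : ∀ x ∈ K, ∃ a b : F, x = a • 1 + b • j := fun x hx => by
    have hx' := s.adj_mem_of_isAdjointClosedFor hc hx
    obtain ⟨a, ha⟩ := hsc _ (add_mem hx hx') (by rw [s.adj_add, s.adj_adj, add_comm])
    obtain ⟨b, hb⟩ := hsc _ (mul_mem (sub_mem hx hx') hjK) (by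
      rw [s.adj_mul, hj1, s.adj_sub, s.adj_adj, hK.comm _ (sub_mem hx hx') _ hjK, ← neg_sub,
        neg_mul_neg])
    have hb' := congrArg (· * j) hb
    simp only [mul_assoc, hj3, mul_neg, mul_one, smul_mul_assoc, one_mul] at hb'
    refine ⟨2⁻¹ * a, -(2⁻¹ * b), ?_⟩
    rw [neg_smul, mul_smul, mul_smul, ← ha, ← hb', ← smul_neg, ← smul_add, neg_neg,
      add_add_sub_cancel, ← two_smul F, smul_smul, inv_mul_cancel₀ h2, one_smul]
  have hcj : ∀ g : GL ι F, (cj g j = j ∨ cj g j = -j) → ∀ x ∈ K, cj g x ∈ K := fun g hg x hx => by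
    obtain ⟨a, b, rfl⟩ := hspan x hx
    rw [map_add, map_smul, map_smul, map_one]
    refine add_mem (K.smul_mem (one_mem _) _) (K.smul_mem ?_ _)
    rcases hg with h | h <;> rw [h]
    exacts [hjK, neg_mem hjK]
  refine ⟨j, hj3, hj1, fun g => ?_⟩
  rw [← neg_mul, ← cj_eq_iff, ← cj_eq_iff]
  refine ⟨fun hg => ?_, fun hg x => ⟨hcj g hg x, fun hx => ?_⟩⟩
  · have h1 : cj g j ∈ K := (hg j).1 hjK
    rcases hdom (cj g j - j) (sub_mem h1 hjK) (cj g j + j) (by
      rw [sub_mul, mul_add, mul_add, ← map_mul, hj3, hK.comm _ h1 _ hjK]; simp [add_comm]) with h | h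
    exacts [Or.inl (sub_eq_zero.1 h), Or.inr (eq_neg_of_add_eq_zero_left h)]
  · rw [← cj_inv_cj g x]
    refine hcj g⁻¹ (hg.imp (fun h => ?_) fun h => ?_) _ hx
    · rw [← h, cj_inv_cj, h]
    · rw [← neg_eq_iff_eq_neg, ← map_neg, ← h, cj_inv_cj]

/-- A symplectic basis adapted to a skew complex structure. -/
theorem exists_unitary_coords [Fintype F] (hq : Fintype.card F = 3) (hn : Fintype.card ι = 4)
    (hf : IsSymplecticForm f) {j : Matrix ι ι F} (h1 : j * j = -1)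
    (h2 : adj (RingEquiv.refl F) f j = -j) : ∃ (e : ι ≃ Fin 4) (P : GL ι F),
      j = tr e P (iFour F) ∧
      ∀ x y, f (vec e P x) (vec e P y) = x 0 * y 1 - x 1 * y 0 + x 2 * y 3 - x 3 * y 2 := by
  have s := isSesq_of_isSymplecticForm hf
  have p := s.pre
  have h3 : (3 : F) = 0 := by simpa using OMax.natCast_card_eq_zero hq
  have h2' : (2 : F) ≠ 0 := two_ne_zero_of_odd (by rw [hq]; decide)
  have jj : ∀ v, j *ᵥ (j *ᵥ v) = -v := fun v => by rw [mulVec_mulVec, h1, neg_mulVec, one_mulVec]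
  have sk : ∀ u v, f (j *ᵥ u) v = -f u (j *ᵥ v) := fun u v => by
    rw [s.adj_spec, h2, neg_mulVec, p.neg_right]
  have norm : ∀ v, f v (j *ᵥ v) ≠ 0 → ∃ a : F, f (v + a • j *ᵥ v) (j *ᵥ (v + a • j *ᵥ v)) = 1 :=
    fun v hv => by
    rcases OMax.eq_or_of_card_three hq (f v (j *ᵥ v)) with h | h | h
    · exact absurd h hv
    · exact ⟨0, by simpa using h⟩
    · refine ⟨1, ?_⟩
      simp only [one_smul, mulVec_add, jj, p.add_left, p.add_right, p.neg_right, sk, h,
        hf.alternating]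
      linear_combination -h3
  have aniso : ∀ U : Set (ι → F), (∀ u ∈ U, ∀ v ∈ U, u + v ∈ U) → (∀ u ∈ U, f u (j *ᵥ u) = 0) →
      ∀ u ∈ U, ∀ v ∈ U, f u (j *ᵥ v) = 0 := fun U hU h u hu v hv => by
    have := h _ (hU u hu v hv)
    rw [mulVec_add, p.add_left, p.add_right, p.add_right, h u hu, h v hv, hf.skew v, sk] at this
    exact mul_left_cancel₀ h2' (by linear_combination this)
  obtain ⟨v, hv⟩ : ∃ v, f v (j *ᵥ v) = 1 := by
    by_contra! h
    obtain ⟨u, hu, -⟩ := exists_ne_zero_two_dot (F := F) (ι := ι) (by omega) 0 0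
    refine hu (s.nondeg' u fun x => ?_)
    rw [← neg_neg x, ← jj]
    exact aniso Set.univ (fun _ _ _ _ => trivial) (fun u _ => by_contra fun h0 =>
      (norm u h0).elim fun _ => h _) _ trivial _ trivial
  obtain ⟨w, hw, hvw, hvw'⟩ : ∃ w, f w (j *ᵥ w) = 1 ∧ f w v = 0 ∧ f w (j *ᵥ v) = 0 := by
    by_contra! h
    obtain ⟨u, hu, h4, h5⟩ := exists_ne_zero_two_dot (F := F) (ι := ι) (by omega) (fn f v)
      (fn f (j *ᵥ v))
    rw [fn_dot p] at h4 h5
    refine hu (s.nondeg' u fun x => ?_)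
    have := aniso {u | f u v = 0 ∧ f u (j *ᵥ v) = 0}
      (fun a ha b hb => ⟨by rw [p.add_left, ha.1, hb.1, add_zero],
        by rw [p.add_left, ha.2, hb.2, add_zero]⟩)
      (fun u hu => by_contra fun h0 => (norm u h0).elim fun a ha => h _ ha
        (by simp [p.add_left, p.smul_left, sk, hu.1, hu.2])
        (by simp [p.add_left, p.smul_left, sk, jj, p.neg_right, hu.1, hu.2])) u ⟨h4, h5⟩
      (j *ᵥ x - f (j *ᵥ x) (j *ᵥ v) • v + f (j *ᵥ x) v • j *ᵥ v)
      ⟨by simp only [p.add_left, p.sub_left, p.smul_left, hf.alternating, sk v v, hv]; ring,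
        by simp only [p.add_left, p.sub_left, p.smul_left, hf.alternating, hv]; ring⟩
    simpa [mulVec_add, mulVec_sub, mulVec_smul, jj, p.add_right, p.sub_right, p.smul_right,
      p.neg_right, h4, h5] using this
  have hwv : f v w = 0 := by rw [hf.skew, hvw, neg_zero]
  have hwv' : f v (j *ᵥ w) = 0 := by rw [hf.skew, sk, hvw', neg_neg]
  obtain ⟨e, P, h⟩ := exists_vec_of_gram p ![v, j *ᵥ v, w, j *ᵥ w] (by simpa using hn)
    fun x h => by
    have h0 := h 0
    have h1 := h 1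
    have h2 := h 2
    have h3 := h 3
    simp [Fin.sum_univ_four, sk, jj, p.neg_right, hf.alternating, hv, hw, hvw, hvw', hwv, hwv']
      at h0 h1 h2 h3
    ext i
    fin_cases i <;> simp [h0, h1, h2, h3]
  refine ⟨e, P, Matrix.toLin'.injective (LinearMap.ext fun u => ?_), fun x y => ?_⟩
  · obtain ⟨x, rfl⟩ := vec_surjective e P u
    rw [toLin'_apply, toLin'_apply, tr_mulVec, h, h]
    simp [Fin.sum_univ_four, iFour, mulVec_add, mulVec_smul, jj, dotProduct]
    module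
  · rw [h, h]
    simp [Fin.sum_univ_four, p.add_left, p.add_right, p.smul_left, p.smul_right, sk, jj,
      p.neg_right, hf.alternating, hv, hw, hvw, hvw', hwv, hwv']
    ring

/-- The normaliser of a quadratic extension field of unitary type in dimension four over the field
with three elements. -/
theorem notMax_unitary_three [Fintype F] (hq : Fintype.card F = 3) (hn : Fintype.card ι = 4)
    (hf : IsSymplecticForm f) {K : Subalgebra F (Matrix ι ι F)} (hK : IsFieldSubalgebra 2 K)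
    (hc : IsAdjointClosedFor f K) (hs : ¬ IsSelfAdjointFor f K) :
    NotMax (isoms f) (subalgebraNormalizer K) := by
  have : Nonempty ι := Fintype.card_pos_iff.1 (by omega)
  have s := isSesq_of_isSymplecticForm hf
  obtain ⟨j, h1, h2, hM⟩ := exists_skew hq hf hK hc hs
  obtain ⟨e, P, rfl, h⟩ := exists_unitary_coords hq hn hf h1 h2
  obtain ⟨ψ⟩ := nonempty_ringEquiv_zmod Nat.prime_three hq
  let Φ : Matrix (Fin 4) (Fin 4) (ZMod 3) ≃+* Matrix ι ι F :=
    ψ.symm.mapMatrix.trans (tr e P).toRingEquiv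
  have hΦ : ∀ X, Φ X = tr e P (X.map ψ.symm) := fun _ => rfl
  have hi : Φ (iFour _) = tr e P (iFour F) := by
    rw [hΦ]
    congr 1
    ext a b
    fin_cases a <;> fin_cases b <;> simp [iFour]
  have hadj : ∀ X, adj (RingEquiv.refl F) f (Φ X) = Φ (-(iFour _ * Xᵀ * iFour _)) := fun X => by
    rw [map_neg, map_mul, map_mul, hi, hΦ, hΦ, ← map_mul, ← map_mul, ← map_neg]
    refine s.adj_eq fun u v => ?_
    obtain ⟨x, rfl⟩ := vec_surjective e P u
    obtain ⟨y, rfl⟩ := vec_surjective e P v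
    rw [tr_mulVec, tr_mulVec, h, h]
    simp only [mulVec, dotProduct, Matrix.neg_apply, Matrix.mul_apply, Fin.sum_univ_four,
      map_apply, transpose_apply]
    simp [iFour]
    ring
  let φ : GL (Fin 4) (ZMod 3) ≃* GL ι F := Units.mapEquiv Φ.toMulEquiv
  have hφ : ∀ g, (φ g : Matrix ι ι F) = Φ g := fun _ => rfl
  have hG : ∀ g, φ g ∈ isoms f ↔ -(iFour _ * g.valᵀ * iFour _) * g.val = 1 := fun g => by
    rw [s.mem_isoms_iff, hφ, hadj, ← map_mul, map_eq_one_iff _ Φ.injective]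
  have hM' : ∀ g, φ g ∈ subalgebraNormalizer K ↔ CommI g.val := fun g => by
    rw [hM, hφ, ← hi, ← map_mul, ← map_mul, ← map_neg, Φ.injective.eq_iff, Φ.injective.eq_iff]
  refine notMax_of_invol (h := φ hFour) (g := φ gFour) (z := φ zFour) ((hG _).2 (by decide))
    ((hM' _).not.2 (by decide)) (fun n hn h2 => ?_) ((hG _).2 (by decide)) ((hG _).2 (by decide))
    (by rw [← map_mul, map_eq_one_iff _ φ.injective]; decide) ((hM' _).2 (by decide))
    (by rw [← map_inv, ← map_mul, ← map_mul, hM']; decide)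
  obtain ⟨n, rfl⟩ := φ.surjective n
  rw [← map_mul, map_eq_one_iff _ φ.injective] at h2
  have h3 : n.val * n.val = 1 := congrArg Units.val h2
  have h4 := congrArg (· * n.val) ((hG n).1 hn)
  simp only [mul_assoc _ n.val, h3, mul_one, one_mul] at h4
  obtain ⟨a, d, p, q, r, t, h5⟩ := exists_saFour h4
  rw [← map_inv, ← map_mul, ← map_mul, hM', hM']
  change _ ↔ CommI (hFour.val * n.val * hFour.inv)
  rw [h5] at h3 ⊢
  exact saFour_check a d p q r t h3

end Unitary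

end Cfsg.Lib.Class.AL
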