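import Cfsg.Agent.Class.AL.SpFour
import Cfsg.Agent.Class.AL.Main
import Cfsg.Agent.Class.DecWeight
import Cfsg.Agent.Class.Asch.Symp

/-!
Maximal subgroups of symplectic groups: the subgroup structure theorem with the redundant cases
removed.
-/

set_option autoImplicit false
set_option linter.unusedSectionVars false

namespace Cfsg.Lib.Class.AL

open Matrix Cfsg.Geo Cfsg.Lib.Class.Asch
open scoped MatrixGroups

variable {ι : Type} [Fintype ι] [DecidableEq ι] {F : Type*} [Field F] [Fintype F]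
  {f : (ι → F) → (ι → F) → F}

/-- Orthogonal planes over the field with two elements. -/
theorem notMax_planes_two (hq : Fintype.card F = 2) (hf : IsSymplecticForm f) {t : ℕ} (ht : 3 ≤ t)
    {D : Fin t → Submodule F (ι → F)} (hD : IsNondegenerateMDecomposition f 2 D) :
    NotMax (isoms f) (decompositionStabilizer D) := by
  refine exists_between_of_mulEquiv (glLin _ F) (K' := SpB (geoBilin hf.bilinear))
    (fun g => Iff.rfl) (H' := stabDec D ⊓ SpB (geoBilin hf.bilinear)) (fun g => and_congr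
      (mem_decompositionStabilizer_iff_glLin D g) Iff.rfl) ?_
  obtain ⟨p, hp⟩ := exists_isDecProj hD.decomp.indep hD.decomp.iSup_eq_top
  exact hp.exists_between_SpB hD.decomp.finrank_eq hq (geoSymp_isAlt hf)
    (fun i w hw h0 => (hD.nondegenerate i w hw h0).1) hD.orthogonal (by simpa using ht)

theorem five_le_card (ho : Odd (Fintype.card F)) (h : Fintype.card F ≠ 3) :
    5 ≤ Fintype.card F := by
  have := Fintype.one_lt_card (α := F)
  obtain ⟨k, hk⟩ := ho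
  omega

/-- The alternatives for a maximal subgroup of a symplectic group. -/
def SpMax (f : (ι → F) → (ι → F) → F) (H : Subgroup (GL ι F)) : Prop :=
  (∃ W : Submodule F (ι → F), W ≠ ⊥ ∧ IsTotallySingularFor f W ∧
      H = subspaceStabilizer W ⊓ isoms f) ∨
  (∃ W : Submodule F (ι → F), W ≠ ⊥ ∧ IsNondegenerateOn f W ∧ 2 ≤ Module.finrank F W ∧
      2 * Module.finrank F W < Fintype.card ι ∧ H = subspaceStabilizer W ⊓ isoms f) ∨
  (∃ (t k : ℕ) (D : Fin t → Submodule F (ι → F)), IsNondegenerateMDecomposition f k D ∧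
      Fintype.card ι = t * k ∧ k % 2 = 0 ∧ (k = 2 → 3 ≤ t → 3 ≤ Fintype.card F) ∧
      H = decompositionStabilizer D ⊓ isoms f) ∨
  (∃ (k : ℕ) (D : Fin 2 → Submodule F (ι → F)), Odd (Fintype.card F) ∧ Fintype.card ι = 2 * k ∧
      (k = 2 → 5 ≤ Fintype.card F) ∧ IsMDecomposition k D ∧
      (∀ i, IsTotallySingularFor f (D i)) ∧ H = decompositionStabilizer D ⊓ isoms f) ∨
  (∃ (r : ℕ) (K : Subalgebra F (Matrix ι ι F)), r.Prime ∧ 2 * r ∣ Fintype.card ι ∧
      IsFieldSubalgebra r K ∧ IsSelfAdjointFor f K ∧ (∀ k ∈ K, ∀ v, f (k *ᵥ v) v = 0) ∧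
      H = subalgebraNormalizer K ⊓ isoms f) ∨
  (Odd (Fintype.card F) ∧ (Fintype.card ι = 4 → 5 ≤ Fintype.card F) ∧
    ∃ K : Subalgebra F (Matrix ι ι F), IsFieldSubalgebra 2 K ∧
      IsAdjointClosedFor f K ∧ ¬ IsSelfAdjointFor f K ∧ H = subalgebraNormalizer K ⊓ isoms f) ∨
  (∃ (n₁ n₂ : ℕ) (e : ι ≃ Fin n₁ × Fin n₂) (P : GL ι F)
      (f₁ : (Fin n₁ → F) → (Fin n₁ → F) → F) (f₂ : (Fin n₂ → F) → (Fin n₂ → F) → F),
      Odd (Fintype.card F) ∧ 3 ≤ n₂ ∧ 2 ≤ n₁ ∧ n₁ % 2 = 0 ∧ Fintype.card ι = n₁ * n₂ ∧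
      (n₂ = 3 → 5 ≤ Fintype.card F) ∧ (n₁ = 2 → n₂ = 4 → ¬ IsPlusTypeOn (fun v => f₂ v v) ⊤) ∧
      IsSymplecticForm f₁ ∧ IsSymmetricForm f₂ ∧
      IsTensorFormStructure id f f₁ f₂ e P ∧ H = tensorProductSubgroup n₁ n₂ e P ⊓ isoms f) ∨
  (∃ (F₀ : Subfield F) (r : ℕ) (P : GL ι F) (ζ : F), r.Prime ∧ Fintype.card F = Nat.card F₀ ^ r ∧
      ζ ≠ 0 ∧ IsFormRationalStructure f F₀ ζ P ∧ H = subfieldSubgroup F₀ P ⊓ isoms f) ∨
  (∃ (R : Subgroup (GL ι F)) (k : ℕ), (Fintype.card F).Prime ∧ Odd (Fintype.card F) ∧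
      Fintype.card ι = 2 ^ k ∧ IsSymplecticTypeGroup 2 R ∧
      ActsAbsolutelyIrreducibly (matrixSet R) ∧ R ≤ similarityGroup f ∧
      Nat.card R = 2 ^ (1 + 2 * k) ∧ Nat.card (Subgroup.center R) = 2 ∧ IsOfMinusType k R ∧
      H = subgroupNormalizer R ⊓ isoms f) ∨
  (∃ (k t : ℕ) (e : ι ≃ (Fin t → Fin k)) (P : GL ι F) (f₁ : (Fin k → F) → (Fin k → F) → F),
      Odd (Fintype.card F) ∧ 3 ≤ t ∧ 2 ≤ k ∧ Fintype.card ι = k ^ t ∧
      (k = 2 → 5 ≤ Fintype.card F) ∧ IsSymplecticForm f₁ ∧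
      IsTensorPowerFormStructure id f f₁ e P ∧ H = tensorWreathSubgroup k t e P ⊓ isoms f) ∨
  (¬ Odd (Fintype.card F) ∧ ∃ Q : (ι → F) → F, IsNondegenerateQuadraticForm Q ∧
      (∀ u v, QuadraticMap.polar Q u v = f u v) ∧ H = quadSimilarityGroup Q ⊓ isoms f) ∨
  InSymplecticResidualClass H

theorem spMax (hf : IsSymplecticForm f) (h4 : 4 ≤ Fintype.card ι) {H : Subgroup (GL ι F)}
    (hH : IsMaximalIn (isoms f) H) : SpMax f H := by
  have : Nonempty ι := Fintype.card_pos_iff.1 (by omega)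
  have hq := Fintype.one_lt_card (α := F)
  have hV := vTrans_isoms hf
  have s := isSesq_of_isSymplecticForm hf
  rcases spCase hf (by omega) hH.1.le with ⟨W, h0, h1, h⟩ | ⟨W, h0, h1, h2, h⟩ | ⟨t, k, D, hD, h⟩ |
    ⟨k, D, ho, hD, hs, h⟩ | ⟨r, K, hr, hK, h1, h2, h⟩ | ⟨K, ho, hK, h1, h2, h⟩ |
    ⟨n₁, n₂, e, P, f₁, f₂, ho, h1, h₁, h₂, hT, h⟩ | ⟨F₀, r, P, ζ, hr, hF, h1, h2, h⟩ |
    ⟨R, k, hR, h1, h2, h3, ho, h5, h6, h7, h8, h⟩ | ⟨k, t, e, P, f₁, ho, -, ht, h1, h₁, hT, h⟩ |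
    ⟨Q, ho, hQ, h1, h⟩ | h
  · exact Or.inl ⟨W, h0, h1, eq_inf_of_le hH h
      (hV.not_le_subspace h0 (ne_top_of_totallySingular s h1))⟩
  · have h3 := even_finrank_of_nondeg hf h1
    have h5 : Module.finrank F W ≠ 0 := mt Submodule.finrank_eq_zero.1 h0
    refine Or.inr <| Or.inl ⟨W, h0, h1, by obtain ⟨_, _⟩ := h3; omega, h2,
      eq_inf_of_le hH h (hV.not_le_subspace h0 ?_)⟩
    rintro rfl
    simp at h2
    omega
  · have h1 := even_finrank_of_nondeg hf (hD.nondegenerate ⟨0, by have := hD.decomp.two_le; omega⟩)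
    rw [hD.decomp.finrank_eq] at h1
    refine Or.inr <| Or.inr <| Or.inl ⟨t, k, D, hD, card_eq_of_isMDecomposition hD.decomp,
      Nat.even_iff.1 h1, ?_, eq_inf_of_le hH h (hV.not_le_decomposition hD.decomp)⟩
    rintro rfl ht
    by_contra h2
    exact (notMax_planes_two (by omega) hf ht hD).false hH h
  · refine Or.inr <| Or.inr <| Or.inr <| Or.inl ⟨k, D, ho, card_eq_of_isMDecomposition hD, ?_, hD,
      hs, eq_inf_of_le hH h (hV.not_le_decomposition hD)⟩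
    rintro rfl
    exact five_le_card ho fun h3 => (notMax_pair_three h3 hf hD hs).false hH h
  · exact Or.inr <| Or.inr <| Or.inr <| Or.inr <| Or.inl ⟨r, K, hr, two_mul_dvd_card s hK h1 h2, hK,
      h1, h2, eq_inf_of_le hH h (not_Sp_le_field hf (by omega) hr.two_le hK)⟩
  · exact Or.inr <| Or.inr <| Or.inr <| Or.inr <| Or.inr <| Or.inl ⟨ho,
      fun hn => five_le_card ho fun h3 => (notMax_unitary_three h3 hn hf hK h1 h2).false hH h,
      K, hK, h1, h2, eq_inf_of_le hH h (not_Sp_le_field hf (by omega) le_rfl hK)⟩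
  · have hn : Fintype.card ι = n₁ * n₂ := by simpa using Fintype.card_congr e
    have he : n₁ % 2 = 0 := Nat.even_iff.1 (by simpa using even_card_of_isSymplecticForm h₁)
    have h2 : 2 ≤ n₁ := by
      rcases n₁ with _ | n₁
      · omega
      · omega
    refine Or.inr <| Or.inr <| Or.inr <| Or.inr <| Or.inr <| Or.inr <| Or.inl ⟨n₁, n₂, e, P, f₁, f₂,
      ho, h1, h2, he, hn, ?_, ?_, h₁, h₂, hT, eq_inf_of_le hH h (hV.not_le_tensor h2 (by omega) e P)⟩
    · rintro rfl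
      exact five_le_card ho fun h3 => (notMax_tensor_three h3 h2 hf h₁ h₂ hT).false hH h
    · rintro rfl rfl hp
      exact (notMax_tensor_four (two_ne_zero_of_odd ho) hf h₁ h₂ hT hp).false hH h
  · exact Or.inr <| Or.inr <| Or.inr <| Or.inr <| Or.inr <| Or.inr <| Or.inr <| Or.inl
      ⟨F₀, r, P, ζ, hr, hF, h1, h2, eq_inf_of_le hH h
        (hV.not_le_subfield (by omega) (subfield_ne_top hr.two_le hF) P)⟩
  · exact Or.inr <| Or.inr <| Or.inr <| Or.inr <| Or.inr <| Or.inr <| Or.inr <| Or.inr <| Or.inl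
      ⟨R, k, h3, ho, h5, h1, absIrr_of_env_eq_top hR.env_top, h2.trans (isoms_le_similarityGroup f),
        h6, h7, h8, eq_inf_of_le hH h
          (not_Sp_le_normalizer hf (by omega) (two_ne_zero_of_odd ho) hR h2)⟩
  · have hn : Fintype.card ι = k ^ t := by simpa using Fintype.card_congr e
    have h2 : 2 ≤ k := by
      rcases k with _ | _ | k
      · rw [zero_pow (by omega)] at hn
        omega
      · rw [zero_add, one_pow] at hn
        omega
      · omega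
    exact Or.inr <| Or.inr <| Or.inr <| Or.inr <| Or.inr <| Or.inr <| Or.inr <| Or.inr <| Or.inr <|
      Or.inl ⟨k, t, e, P, f₁, ho, ht, h2, hn, fun hk => five_le_card ho fun h3 => h1 ⟨h3, hk⟩, h₁, hT,
        eq_inf_of_le hH h (hV.not_le_wreath (by omega) h2 e P)⟩
  · exact Or.inr <| Or.inr <| Or.inr <| Or.inr <| Or.inr <| Or.inr <| Or.inr <| Or.inr <| Or.inr <|
      Or.inr <| Or.inl ⟨ho, Q, hQ, h1, eq_inf_of_le hH
        (h.trans (isometryGroup_le_quadSimilarityGroup Q)) (not_Sp_le_quad hf (by omega) h1)⟩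
  · exact Or.inr <| Or.inr <| Or.inr <| Or.inr <| Or.inr <| Or.inr <| Or.inr <| Or.inr <| Or.inr <|
      Or.inr <| Or.inr h

theorem pow_eq_eight_of_le {n k t : ℕ} (hk : 2 ≤ k) (ht : 3 ≤ t) (h : n = k ^ t) (hn : n ≤ 12) :
    n = 8 ∧ k = 2 ∧ t = 3 := by
  have h1 : k ^ 3 ≤ k ^ t := Nat.pow_le_pow_right (by omega) ht
  have h2 : k = 2 := by
    by_contra h2
    have := Nat.pow_le_pow_left (show 3 ≤ k by omega) 3
    omega
  subst h2
  have h3 : t < 4 := by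
    by_contra! h3
    have := Nat.pow_le_pow_right (show 0 < 2 by omega) h3
    omega
  obtain rfl : t = 3 := by omega
  exact ⟨h, rfl, rfl⟩

theorem le_three_of_two_pow {n k : ℕ} (h : n = 2 ^ k) (hn : n ≤ 12) : k ≤ 3 := by
  by_contra! h3
  have := Nat.pow_le_pow_right (show 0 < 2 by omega) h3
  omega

end Cfsg.Lib.Class.AL
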