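import Cfsg.Agent.Class.AL.SpProper
import Cfsg.Agent.Class.ONotMax
import Cfsg.Agent.Known.QuadDisc
import Cfsg.Agent.Known.QuadSum

/-!
Two tensor decompositions of a symplectic space whose stabilisers are not maximal: an orthogonal
factor of dimension three over the field with three elements, and factors of dimensions two and
four with the orthogonal factor of plus type.
-/

set_option autoImplicit false
set_option linter.unusedSectionVars false

namespace Cfsg.Lib.Class.AL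

open Matrix Cfsg.Geo Cfsg.Lib.Class.Asch
open scoped MatrixGroups Kronecker

variable {ι κ : Type} [Fintype ι] [DecidableEq ι] [Fintype κ] [DecidableEq κ] {F : Type*} [Field F]
  {f : (ι → F) → (ι → F) → F}

/-- A family of the right size with non-singular Gram matrix gives coordinates. -/
theorem exists_vec_of_gram (hf : PreSesq (RingEquiv.refl F) f) (B : κ → ι → F)
    (hc : Fintype.card ι = Fintype.card κ)
    (hB : ∀ x : κ → F, (∀ l, ∑ k, x k * f (B k) (B l) = 0) → x = 0) :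
    ∃ (e : ι ≃ κ) (P : GL ι F), ∀ x, vec e P x = ∑ k, x k • B k :=
  exists_vec_of_indep B hc fun x hx => hB x fun l => by
    have := congrArg (f · (B l)) hx
    simpa only [hf.sum_left, hf.smul_left, hf.zero_left] using this

theorem exists_GL_of_gram {f : (κ → F) → (κ → F) → F} (hf : PreSesq (RingEquiv.refl F) f)
    (B : κ → κ → F) (hB : ∀ x : κ → F, (∀ l, ∑ k, x k * f (B k) (B l) = 0) → x = 0) :
    ∃ A : GL κ F, ∀ x, (A : Matrix κ κ F) *ᵥ x = ∑ k, x k • B k := by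
  obtain ⟨e, P, h⟩ := exists_vec_of_gram hf B rfl hB
  exact ⟨(glLin κ F).symm (vecEquiv e P), fun x => by rw [glLin_symm_mulVec, vecEquiv_apply, h]⟩

section Tensor

variable {d k : ℕ} {e : ι ≃ Fin d × Fin k} {P : GL ι F} {f₁ : (Fin d → F) → (Fin d → F) → F}
  {f₂ : (Fin k → F) → (Fin k → F) → F}

theorem exists_form_ptv (h₁ : IsBilinearForm f₁) (h₂ : IsBilinearForm f₂)
    (h : IsTensorFormStructure id f f₁ f₂ e P) : ∃ c : F, c ≠ 0 ∧ ∀ x y x' y',
      f (vec e P (ptv x y)) (vec e P (ptv x' y')) = c * (f₁ x x' * f₂ y y') := by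
  obtain ⟨c, hc, h⟩ := h
  exact ⟨c, hc, fun x y x' y' => (h _ _).trans (congrArg (c * ·)
    (formOfGram_kronecker_ptv (preSesq_of_isBilinearForm h₁) (preSesq_of_isBilinearForm h₂)
      x x' y y'))⟩

theorem exists_tensor_mulVec {g : GL ι F} (hg : g ∈ tensorProductSubgroup d k e P) :
    ∃ (a : GL (Fin d) F) (b : GL (Fin k) F), ∀ x y, (g : Matrix ι ι F) *ᵥ vec e P (ptv x y) =
      vec e P (ptv ((a : Matrix (Fin d) (Fin d) F) *ᵥ x) ((b : Matrix (Fin k) (Fin k) F) *ᵥ y)) := by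
  obtain ⟨a, b, h⟩ := (mem_tensorProductSubgroup e P g).1 hg
  exact ⟨a, b, fun x y => by rw [h, tr_mulVec, kronecker_mulVec_ptv]⟩

theorem vec_ptv_add_smul (x x' : Fin d → F) (s : F) (y : Fin k → F) :
    vec e P (ptv (x + s • x') y) = vec e P (ptv x y) + s • vec e P (ptv x' y) := by
  rw [← Asch.vec_smul, ← Asch.vec_add]
  congr 1
  ext p
  simp only [ptv, Pi.add_apply, Pi.smul_apply, smul_eq_mul]
  ring

theorem minor_eq_zero_of_pure (hf : PreSesq (RingEquiv.refl F) f) {c : F} (hc : c ≠ 0)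
    (h : ∀ x y x' y', f (vec e P (ptv x y)) (vec e P (ptv x' y')) = c * (f₁ x x' * f₂ y y'))
    {x₁ x₂ x : Fin d → F} {y₁ y₂ y : Fin k → F} {s : F}
    (hp : vec e P (ptv x₁ y₁) + s • vec e P (ptv x₂ y₂) = vec e P (ptv x y))
    (a a' : Fin d → F) (b b' : Fin k → F) :
    s * ((f₁ x₁ a * f₁ x₂ a' - f₁ x₁ a' * f₁ x₂ a) * (f₂ y₁ b * f₂ y₂ b' - f₂ y₁ b' * f₂ y₂ b)) = 0 := by
  have key : ∀ a b, f₁ x₁ a * f₂ y₁ b + s * (f₁ x₂ a * f₂ y₂ b) = f₁ x a * f₂ y b := fun a b => by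
    have := congrArg (f · (vec e P (ptv a b))) hp
    simp only [hf.add_left, hf.smul_left, h] at this
    exact mul_left_cancel₀ hc (by linear_combination this)
  calc _ = (f₁ x₁ a * f₂ y₁ b + s * (f₁ x₂ a * f₂ y₂ b)) *
        (f₁ x₁ a' * f₂ y₁ b' + s * (f₁ x₂ a' * f₂ y₂ b')) -
      (f₁ x₁ a * f₂ y₁ b' + s * (f₁ x₂ a * f₂ y₂ b')) *
        (f₁ x₁ a' * f₂ y₁ b + s * (f₁ x₂ a' * f₂ y₂ b)) := by ring
    _ = 0 := by rw [key, key, key, key]; ring

theorem vec_kronecker (a : GL (Fin d) F) (b : GL (Fin k) F) (x : Fin d → F) (y : Fin k → F) :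
    vec e (trGL e P (GeneralLinearGroup.kronecker a b) * P) (ptv x y) =
      vec e P (ptv ((a : Matrix (Fin d) (Fin d) F) *ᵥ x) ((b : Matrix (Fin k) (Fin k) F) *ᵥ y)) := by
  rw [← kronecker_mulVec_ptv, ← tr_mulVec, Asch.vec, coe_mul_mulVec]
  rfl

theorem tensorProductSubgroup_kronecker (a : GL (Fin d) F) (b : GL (Fin k) F) :
    tensorProductSubgroup d k e (trGL e P (GeneralLinearGroup.kronecker a b) * P) =
      tensorProductSubgroup d k e P := by
  have key : ∀ (x : GL (Fin d) F) (y : GL (Fin k) F),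
      tr e (trGL e P (GeneralLinearGroup.kronecker a b) * P)
        ((x : Matrix (Fin d) (Fin d) F) ⊗ₖ (y : Matrix (Fin k) (Fin k) F)) =
      tr e P (((a * x * a⁻¹ : GL (Fin d) F) : Matrix (Fin d) (Fin d) F) ⊗ₖ
        ((b * y * b⁻¹ : GL (Fin k) F) : Matrix (Fin k) (Fin k) F)) := fun x y => by
    rw [tr_apply, cj_mul, ← tr_apply, ← tr_cj]
    simp only [Units.val_mul, mul_kronecker_mul]
    rfl
  ext g
  simp only [mem_tensorProductSubgroup, key]
  refine ⟨fun ⟨x, y, h⟩ => ⟨_, _, h⟩, fun ⟨x, y, h⟩ => ⟨a⁻¹ * x * a, b⁻¹ * y * b, ?_⟩⟩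
  rw [h]
  congr 3 <;> group

end Tensor

/-- An orthogonal factor of dimension three over the field with three elements. -/
theorem notMax_tensor_three [Fintype F] (hq : Fintype.card F = 3) {d : ℕ} (hd : 2 ≤ d)
    {e : ι ≃ Fin d × Fin 3} {P : GL ι F} {f₁ : (Fin d → F) → (Fin d → F) → F}
    {f₂ : (Fin 3 → F) → (Fin 3 → F) → F} (hf : IsSymplecticForm f) (h₁ : IsSymplecticForm f₁)
    (h₂ : IsSymmetricForm f₂) (h : IsTensorFormStructure id f f₁ f₂ e P) :
    NotMax (isoms f) (tensorProductSubgroup d 3 e P) := by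
  have h2 : (2 : F) ≠ 0 := two_ne_zero_of_odd (by rw [hq]; decide)
  obtain ⟨c₀, hc₀, hT⟩ := exists_form_ptv h₁.bilinear h₂.bilinear h
  have s₂ := isSesq_of_isSymmetricForm h₂
  have hQ₀ := s₂.isNondegenerateQuadraticForm_self h2
  have hQ := geoQuad_nondegenerate hQ₀
  have hpol : ∀ u v, QuadraticMap.polar (geoQuad hQ₀) u v = 2 * f₂ u v := fun u v => by
    rw [coe_geoQuad, polar_diag s₂.pre, h₂.symm v u, two_mul]
  obtain ⟨c, hc, H⟩ := OMax.exists_aniso_perp hq (OMax.disjoint_top_orth hQ) (by simp)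
  obtain ⟨y₁, hy₁⟩ := Known.exists_quad_eq hQ (by simp) c
  have hy₁' : f₂ y₁ y₁ = c := hy₁
  have hy0 : y₁ ≠ 0 := by rintro rfl; exact hc (hy₁'.symm.trans (s₂.pre.zero_left _))
  obtain ⟨y₂, hy₂, h12, -⟩ := exists_ne_zero_two_dot (ι := Fin 3) (by simp) (fn f₂ y₁) 0
  rw [fn_dot s₂.pre] at h12
  have h21 : f₂ y₁ y₂ = 0 := by rw [h₂.symm, h12]
  have h22 : f₂ y₂ y₂ ≠ 0 := fun h0 => hy₂ (H y₁ trivial y₂ trivial hy₁ h0 (by
    rw [hpol, h21, mul_zero]))
  have : Nonempty (Fin d) := ⟨⟨0, by omega⟩⟩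
  obtain ⟨x₁, x₂, hx⟩ := (isSesq_of_isSymplecticForm h₁).exists_ne_zero
  have hx0 : x₁ ≠ 0 := by rintro rfl; exact hx ((symp_pre h₁).zero_left _)
  obtain ⟨w, hw0, hw⟩ := exists_not_ptv (F := F) hd (by norm_num : 2 ≤ 3)
  refine notMax_of (N := setStab {v | ∃ x y, f₂ y y = c ∧ v = vec e P (ptv x y)}) ?_
    ((vTrans_isoms hf).not_le_of_set (fun g hg => hg) (u := vec e P (ptv x₁ y₁)) ⟨_, _, hy₁', rfl⟩
      (vec_ne_zero e P (ptv_ne_zero hx0 hy0)) (w := vec e P w)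
      (fun ⟨x, y, _, h⟩ => hw x y (vec_injective e P h)) (vec_ne_zero e P hw0))
    (spTv_mem hf (vec e P (ptv x₂ y₁)) 1) ?_ ?_
  · rintro g ⟨hg, hg'⟩ _ ⟨x, y, hy, rfl⟩
    obtain ⟨a, b, hab⟩ := exists_tensor_mulVec hg
    refine ⟨_, _, ?_, hab x y⟩
    set m := f₁ ((a : Matrix (Fin d) (Fin d) F) *ᵥ x₁) ((a : Matrix (Fin d) (Fin d) F) *ᵥ x₂) / f₁ x₁ x₂
    have h3 : ∀ y, geoQuad hQ₀ ((glLin _ F b).symm y) = m * geoQuad hQ₀ y := fun y => by
      obtain ⟨y, rfl⟩ := (glLin _ F b).surjective y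
      have := hg' (vec e P (ptv x₁ y)) (vec e P (ptv x₂ y))
      rw [LinearEquiv.symm_apply_apply]
      change f ((g : Matrix ι ι F) *ᵥ _) ((g : Matrix ι ι F) *ᵥ _) = _ at this
      rw [hab, hab, hT, hT] at this
      simp only [geoQuad_apply, glLin_apply, m]
      field_simp
      exact mul_left_cancel₀ hc₀ (by linear_combination -this)
    obtain ⟨s, hs, h4⟩ := Known.sqEq_disc_of_sim (glLin _ F b).symm h3
    have h5 := mul_self_of_card_three hq hs
    rw [Module.finrank_fin_fun, ← mul_assoc, eq_comm, mul_eq_right₀ (Known.disc_ne_zero hQ), pow_two,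
      h5] at h4
    have h6 := mul_self_of_card_three hq (a := m) (by rintro h0; simp [h0] at h4)
    have h7 := h3 (glLin _ F b y)
    rw [LinearEquiv.symm_apply_apply, show m = 1 by linear_combination h4 - m * h6] at h7
    simp only [geoQuad_apply, glLin_apply] at h7
    linear_combination hy - h7
  · rintro _ ⟨x, y, hy, rfl⟩
    rw [spTv_mulVec hf]
    rcases OMax.frame_of_three hq hc H Submodule.mem_top Submodule.mem_top (u := y) (v := y₁) hy hy₁
      with rfl | rfl | h3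
    · exact ⟨_, y, hy, (vec_ptv_add_smul _ _ _ _).symm⟩
    · rw [show ptv x (-y₁) = ptv (-x) y₁ by ext p; simp [ptv]]
      exact ⟨_, y₁, hy₁', (vec_ptv_add_smul _ _ _ _).symm⟩
    · rw [hpol, mul_eq_zero, or_iff_right h2] at h3
      exact ⟨x, y, hy, by rw [hT, h3]; simp⟩
  · intro hm
    obtain ⟨x, y, h3⟩ := tensor_mulVec_pure hm x₁ (y₁ + y₂)
    rw [spTv_mulVec hf] at h3
    have h4 := minor_eq_zero_of_pure (symp_pre hf) hc₀ hT h3 x₂ x₁ y₂ y₁
    rw [hT, h₁.alternating, h₁.skew x₂ x₁] at h4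
    simp only [s₂.pre.add_left, h12, h21, hy₁'] at h4
    simp [hc₀, hc, hx, h22] at h4

/-- The exchange of the first two factors of a triple tensor product of planes. -/
def swap24 : Equiv.Perm (Fin 2 × Fin 4) := Equiv.swap (0, 2) (1, 0) * Equiv.swap (0, 3) (1, 1)

/-- The Gram matrix of the triple tensor product of the standard alternating form. -/
def gram24 (a b : Fin 2 × Fin 4) : ℤ :=
  !![0, 1; -1, 0] a.1 b.1 * !![0, 0, 0, 1; 0, 0, -1, 0; 0, -1, 0, 0; 1, 0, 0, 0] a.2 b.2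

theorem gram24_swap : ∀ a b, gram24 (swap24.symm a) (swap24.symm b) = gram24 a b := by
  decide

theorem exists_factor {y : Fin 4 → F} (h : y 0 * y 3 = y 1 * y 2) :
    ∃ a b c d : F, y = ![a * c, a * d, b * c, b * d] := by
  by_cases h0 : y 0 = 0
  · rw [h0, zero_mul, eq_comm, mul_eq_zero] at h
    rcases h with h | h
    · exact ⟨0, 1, y 2, y 3, by ext i; fin_cases i <;> simp [h0, h]⟩
    · exact ⟨y 1, y 3, 0, 1, by ext i; fin_cases i <;> simp [h0, h]⟩
  · refine ⟨1, y 2 / y 0, y 0, y 1, ?_⟩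
    ext i
    fin_cases i <;> simp [h0]
    field_simp
    linear_combination h

theorem notMax_tensor_four_std [Finite F] (h2 : (2 : F) ≠ 0) {e : ι ≃ Fin 2 × Fin 4} {P : GL ι F}
    (hf : IsSymplecticForm f) {c : F} (hc : c ≠ 0)
    (hT : ∀ x y x' y', f (vec e P (ptv x y)) (vec e P (ptv x' y')) =
      c * ((x 0 * x' 1 - x 1 * x' 0) * (y 0 * y' 3 + y 3 * y' 0 - y 1 * y' 2 - y 2 * y' 1))) :
    NotMax (isoms f) (tensorProductSubgroup 2 4 e P) := by
  let L := (vecEquiv e P).symm.trans ((LinearEquiv.funCongrLeft F F swap24).trans (vecEquiv e P))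
  have hL : ∀ z, (((glLin ι F).symm L : GL ι F) : Matrix ι ι F) *ᵥ vec e P z =
      vec e P (z ∘ swap24) := fun z => by
    rw [glLin_symm_mulVec]
    exact congrArg (fun z => vec e P (z ∘ swap24)) (vecEquiv_symm_vec e P z)
  have hs : ∀ a b, f (vec e P (Pi.single a 1)) (vec e P (Pi.single b 1)) = c * gram24 a b := by
    have : ∀ a : Fin 2 × Fin 4, (Pi.single a 1 : Fin 2 × Fin 4 → F) =
        ptv (Pi.single a.1 1) (Pi.single a.2 1) := fun a => by
      ext p
      simp only [ptv, Pi.single_apply, Prod.ext_iff]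
      split_ifs <;> simp_all
    rintro ⟨i, j⟩ ⟨i', j'⟩
    rw [this, this, hT]
    fin_cases i <;> fin_cases i' <;> fin_cases j <;> fin_cases j' <;> simp [gram24]
  obtain ⟨w, hw0, hw⟩ := exists_not_ptv (F := F) (le_refl 2) (by norm_num : 2 ≤ 4)
  refine notMax_of (N := setStab {v | ∃ x y, y 0 * y 3 = y 1 * y 2 ∧ v = vec e P (ptv x y)}) ?_
    ((vTrans_isoms hf).not_le_of_set (fun g hg => hg) (u := vec e P (ptv 1 1)) ⟨_, _, rfl, rfl⟩
      (vec_ne_zero e P (ptv_ne_zero one_ne_zero one_ne_zero)) (w := vec e P w)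
      (fun ⟨x, y, _, h⟩ => hw x y (vec_injective e P h)) (vec_ne_zero e P hw0))
    (x := (glLin ι F).symm L) ?_ ?_ ?_
  · rintro g ⟨hg, hg'⟩ _ ⟨x, y, hy, rfl⟩
    obtain ⟨a, b, hab⟩ := exists_tensor_mulVec hg
    refine ⟨_, _, ?_, hab x y⟩
    have := hg' (vec e P (ptv (((a⁻¹ : GL (Fin 2) F) : Matrix (Fin 2) (Fin 2) F) *ᵥ ![1, 0]) y))
      (vec e P (ptv (((a⁻¹ : GL (Fin 2) F) : Matrix (Fin 2) (Fin 2) F) *ᵥ ![0, 1]) y))
    change f ((g : Matrix ι ι F) *ᵥ _) ((g : Matrix ι ι F) *ᵥ _) = _ at this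
    rw [hab, hab, hT, hT, mulVec_inv_mulVec, mulVec_inv_mulVec,
      show y 0 * y 3 + y 3 * y 0 - y 1 * y 2 - y 2 * y 1 = 0 by linear_combination 2 * hy] at this
    simp only [cons_val_zero, cons_val_one, mul_zero] at this
    exact mul_left_cancel₀ (mul_ne_zero hc h2) (by linear_combination this)
  · refine mem_isoms.2 fun u v => ?_
    obtain ⟨u, rfl⟩ := vec_surjective e P u
    obtain ⟨v, rfl⟩ := vec_surjective e P v
    rw [hL, hL]
    have s := (isSesq_of_isSymplecticForm hf).pull e P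
    refine PreSesq.ext_single (IsSesq.comp s (LinearEquiv.funCongrLeft F F swap24)).pre s.pre
      (fun a b => ?_) u v
    have : ∀ a : Fin 2 × Fin 4, LinearEquiv.funCongrLeft F F swap24 (Pi.single a 1) =
        Pi.single (swap24.symm a) 1 := fun a => by
      ext p
      simp [Pi.single_apply, Equiv.eq_symm_apply]
    simp only [this, hs, gram24_swap]
  · rintro _ ⟨x, y, hy, rfl⟩
    obtain ⟨a, b, c, d, rfl⟩ := exists_factor hy
    refine ⟨![a, b], ![x 0 * c, x 0 * d, x 1 * c, x 1 * d], by simp; ring, ?_⟩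
    rw [hL]
    congr 1
    ext ⟨i, j⟩
    fin_cases i <;> fin_cases j <;> simp [ptv, swap24, Equiv.swap_apply_def] <;> ring
  · intro hm
    obtain ⟨x, y, h3⟩ := tensor_mulVec_pure hm ![1, 0] ![1, 0, 0, 1]
    rw [hL] at h3
    have h4 := vec_injective e P h3
    have h5 := congrFun h4 (0, 0)
    have h6 := congrFun h4 (1, 1)
    have h7 := congrFun h4 (0, 1)
    simp [ptv, swap24, Equiv.swap_apply_def] at h5 h6 h7
    rcases h7 with h7 | h7 <;> simp [h7] at h5 h6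

/-- Factors of dimensions two and four, the orthogonal factor being of plus type. -/
theorem notMax_tensor_four [Finite F] (h2 : (2 : F) ≠ 0)
    {e : ι ≃ Fin 2 × Fin 4} {P : GL ι F} {f₁ : (Fin 2 → F) → (Fin 2 → F) → F}
    {f₂ : (Fin 4 → F) → (Fin 4 → F) → F} (hf : IsSymplecticForm f) (h₁ : IsSymplecticForm f₁)
    (h₂ : IsSymmetricForm f₂) (h : IsTensorFormStructure id f f₁ f₂ e P)
    (hp : IsPlusTypeOn (fun v => f₂ v v) ⊤) :
    NotMax (isoms f) (tensorProductSubgroup 2 4 e P) := by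
  obtain ⟨c₀, hc₀, hT⟩ := exists_form_ptv h₁.bilinear h₂.bilinear h
  have s₁ := symp_pre h₁
  have s₂ := isSesq_of_isSymmetricForm h₂
  have hQ₀ := s₂.isNondegenerateQuadraticForm_self h2
  have hQ := geoQuad_nondegenerate hQ₀
  have hpol : ∀ u v, f₂ u v = 2⁻¹ * QuadraticMap.polar (geoQuad hQ₀) u v := fun u v => by
    rw [coe_geoQuad, polar_diag s₂.pre, h₂.symm v u]
    field_simp
    ring
  obtain ⟨U, -, hU, hd⟩ := hp
  obtain ⟨m, p, q, hh, hm⟩ := Known.IsPlus.exists_isHyp (Q := geoQuad hQ₀)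
    ⟨U, hU, by rw [hd, finrank_top]⟩ hQ
  obtain rfl : m = 2 := by simp at hm; omega
  have pp : ∀ i j, f₂ (p i) (p j) = 0 := fun i j => by rw [hpol, hh.ee, mul_zero]
  have qq : ∀ i j, f₂ (q i) (q j) = 0 := fun i j => by rw [hpol, hh.ff, mul_zero]
  have pq : ∀ i j, f₂ (p i) (q j) = if i = j then 2⁻¹ else 0 := fun i j => by
    rw [hpol, hh.ef]; simp
  have qp : ∀ i j, f₂ (q i) (p j) = if i = j then 2⁻¹ else 0 := fun i j => by
    rw [hpol, hh.fe]; simp
  obtain ⟨x₁, x₂, hx⟩ := (isSesq_of_isSymplecticForm h₁).exists_ne_zero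
  obtain ⟨a, ha⟩ := exists_GL_of_gram s₁ ![x₁, x₂] fun x h => by
    have h0 := h 0
    have h1 := h 1
    simp [h₁.alternating, h₁.skew x₂ x₁, hx] at h0 h1
    ext i
    fin_cases i <;> simp [h0, h1]
  obtain ⟨b, hb⟩ := exists_GL_of_gram s₂.pre ![p 0, p 1, -q 1, q 0] fun x h => by
    have h0 := h 0
    have h1 := h 1
    have h2' := h 2
    have h3 := h 3
    simp [Fin.sum_univ_four, s₂.pre.neg_left, s₂.pre.neg_right, pp, qq, pq, qp, h2] at h0 h1 h2' h3
    ext i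
    fin_cases i <;> simp [h0, h1, h2', h3]
  rw [← tensorProductSubgroup_kronecker a b]
  refine notMax_tensor_four_std h2 hf (c := c₀ * f₁ x₁ x₂ * 2⁻¹) (by simp [hc₀, hx, h2])
    fun x y x' y' => ?_
  rw [vec_kronecker, vec_kronecker, hT, ha, ha, hb, hb]
  simp [Fin.sum_univ_four, s₁.add_left, s₁.add_right, s₁.smul_left, s₁.smul_right,
    s₂.pre.add_left, s₂.pre.add_right, s₂.pre.smul_left, s₂.pre.smul_right, s₂.pre.neg_left,
    s₂.pre.neg_right, pp, qq, pq, qp, h₁.alternating, h₁.skew x₂ x₁]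
  ring

end Cfsg.Lib.Class.AL
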